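import Cfsg.Agent.Bt.Sect
import Cfsg.Agent.Bt.Xc.CJ2D
import Cfsg.Agent.Bt.Out.Co1
import Cfsg.Agent.J23.P2

set_option autoImplicit false
set_option maxRecDepth 1000000

namespace CF.Bt.SectJ2

open CF.Comp CF.Bt.OutCo1

theorem x0 : stdT (lapp X X1) 98280 17 ap (M :: t) [aw] [] TF TK T 3024000 = true := by decide +kernel
theorem x1 : cqT ap 98280 (M :: t) 0 2 aw gs J23.U2 es = true := by decide +kernel
theorem x2 : eqT ap (M :: t) (wpow aw 5) [] = true := by decide +kernel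
theorem x3 : neT ap 98280 0 aw [] = true := by decide +kernel

theorem equiv : ∃ a : Cfsg.Spor.Co1, orderOf a = 5 ∧ Nonempty (PG J23.P2.N ≃* CQ a) := by
  obtain ⟨hE, -, hP⟩ := model
  have := Exact.finite_top hE
  have := J23.P2.simpleP
  have ho : orderOf (CF.Comp.ev f aw) = 5 :=
    have := Fact.mk (show Nat.Prime 5 by norm_num)
    orderOf_eq_prime ((ev_wpow f aw 5).symm.trans (hP.eq hE x2)) (hP.ne x3)
  obtain ⟨k, h1, h2, h3⟩ := cqT_spec hE hP x1
  obtain ⟨ψ, e⟩ := hom_of_bound (k := k) J23.P2.ptop (J23.P2.cardP ▸ J23.bnd2 fun r hr => Prod.ext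
    ((map_ev (MonoidHom.fst _ _) (fun i => (pg J23.P2.N i, k i)) r).trans (J23.P2.prels r hr))
    ((map_ev (MonoidHom.snd _ _) (fun i => (pg J23.P2.N i, k i)) r).trans (h1 r hr)))
  replace e := (e [1] (by decide)).trans (ev_single k 0)
  exact ⟨_, ho, equiv_CQ (e ▸ h3) (by
    rw [ho, J23.P2.cardP]
    exact card_le_of_stdT hE (by decide) (by decide) hP x0
      (fun _ hg _ hw => List.mem_singleton.1 hw ▸ Subgroup.mem_centralizer_singleton_iff.1 hg) fun _ _ _ h => nomatch h)⟩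

end CF.Bt.SectJ2
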