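import Cfsg.Agent.Bt.Sect
import Cfsg.Agent.Bt.Xc.CSuzD
import Cfsg.Agent.Bt.Out.Co1
import Cfsg.Agent.Comp.Suz.Main

set_option autoImplicit false
set_option maxRecDepth 1000000

namespace CF.Bt.SectSuz

open CF.Comp CF.Bt.OutCo1

theorem x0 : stdT (lapp X X1) 98280 17 ap (M :: t) [aw] [] TF TK T 1345036492800 = true := by decide +kernel
theorem x1 : cqT ap 98280 (M :: t) 0 1 aw gs Suz.rels es = true := by decide +kernel
theorem x2 : eqT ap (M :: t) (wpow aw 3) [] = true := by decide +kernel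
theorem x3 : neT ap 98280 0 aw [] = true := by decide +kernel

theorem equiv : ∃ a : Cfsg.Spor.Co1, orderOf a = 3 ∧ Nonempty (Cfsg.Spor.Suz ≃* CQ a) := by
  obtain ⟨hE, -, hP⟩ := model
  have := Exact.finite_top hE
  have := Suz.simple
  have ho : orderOf (CF.Comp.ev f aw) = 3 :=
    have := Fact.mk (show Nat.Prime 3 by norm_num)
    orderOf_eq_prime ((ev_wpow f aw 3).symm.trans (hP.eq hE x2)) (hP.ne x3)
  obtain ⟨k, h1, h2, h3⟩ := cqT_spec hE hP x1
  have e := Suz.cox.lift_cg h1 h2 0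
  exact ⟨_, ho, equiv_CQ (e ▸ h3) (by
    rw [ho, Suz.card]
    exact card_le_of_stdT hE (by decide) (by decide) hP x0
      (fun _ hg _ hw => List.mem_singleton.1 hw ▸ Subgroup.mem_centralizer_singleton_iff.1 hg) fun _ _ _ h => nomatch h)⟩

end CF.Bt.SectSuz
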